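import Cfsg.Agent.Lib.Helper99.C64.Defs

/-!
# C64 (S6000) package [CENTTR] (assuming the package [R0])
-/

set_option autoImplicit false

namespace Cfsg.Agent.Lib.Helper84.C64

open Cfsg.Agent.Lib.Helper99.C64 Matrix

universe u

/-- elements of `N0 ι` conjugate `R0 ι` into itself -/
theorem norm_conj {F : Type u} [Field F] {ι : F} {y : GL (Fin 4) F} (hy : y ∈ N0 ι)
    (s : GL (Fin 4) F) (hs : s ∈ R0 ι) : y⁻¹ * s * y ∈ R0 ι :=
  ((Subgroup.mem_normalizer_iff''.mp hy) s).mp hs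

theorem norm_conj' {F : Type u} [Field F] {ι : F} {y : GL (Fin 4) F} (hy : y ∈ N0 ι)
    (s : GL (Fin 4) F) (hs : s ∈ R0 ι) : y * s * y⁻¹ ∈ R0 ι :=
  ((Subgroup.mem_normalizer_iff.mp hy) s).mp hs

/-- a fourth root of unity of odd order is `1` -/
theorem eq_one_of_pow_odd {F : Type u} [Field F] (ε : F) (m : ℕ) (hm : Odd m) (h4 : ε ^ 4 = 1)
    (hεm : ε ^ m = 1) : ε = 1 := by
  obtain ⟨j, rfl⟩ := hm
  rcases Nat.even_or_odd' j with ⟨t, rfl | rfl⟩
  · have : ε ^ (2 * (2 * t) + 1) = (ε ^ 4) ^ t * ε := by ring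
    rw [this, h4, one_pow, one_mul] at hεm
    exact hεm
  · have : ε ^ (2 * (2 * t + 1) + 1) = (ε ^ 4) ^ t * ε ^ 3 := by ring
    rw [this, h4, one_pow, one_mul] at hεm
    have h5 : ε ^ 4 = ε ^ 3 * ε := by ring
    rw [h5, hεm, one_mul] at h4
    exact h4

theorem pkgCentTr_of (hR0 : PkgR0.{u}) : PkgCentTr.{u} := by
  intro F _ _ h2 ι hι y hy m hm hym
  classical
  obtain ⟨hcard, htr, hsc4, -, -, -, hcomm, -, -⟩ := hR0 F h2 ι hι
  haveI : Finite ↥(R0 ι) := Nat.finite_of_card_ne_zero (by rw [hcard]; norm_num)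
  haveI : Fintype ↥(R0 ι) := Fintype.ofFinite _
  have hYiY : ((y⁻¹ : GL (Fin 4) F) : M4 F) * (y : M4 F) = 1 := by
    rw [← Units.val_mul, inv_mul_cancel]; rfl
  obtain ⟨S, hS⟩ : ∃ S : M4 F, S = ∑ s : ↥(R0 ι), ((s : GL (Fin 4) F) : M4 F) * (y : M4 F) *
      (((s : GL (Fin 4) F)⁻¹ : GL (Fin 4) F) : M4 F) := ⟨_, rfl⟩
  -- `S` commutes with `R0`
  have hSc : ∀ g ∈ R0 ι, (g : M4 F) * S = S * (g : M4 F) := by
    intro g hg
    rw [hS, Finset.mul_sum, Finset.sum_mul]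
    rw [← Equiv.sum_comp (Equiv.mulLeft (⟨g, hg⟩ : ↥(R0 ι))) (fun s : ↥(R0 ι) =>
      ((s : GL (Fin 4) F) : M4 F) * (y : M4 F) *
        (((s : GL (Fin 4) F)⁻¹ : GL (Fin 4) F) : M4 F) * (g : M4 F))]
    refine Finset.sum_congr rfl (fun s _ => ?_)
    have h1 : ((g⁻¹ : GL (Fin 4) F) : M4 F) * (g : M4 F) = 1 := by
      rw [← Units.val_mul, inv_mul_cancel]; rfl
    simp only [Equiv.coe_mulLeft, Subgroup.coe_mul, Units.val_mul, _root_.mul_inv_rev]
    simp only [mul_assoc, h1, mul_one]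
  obtain ⟨c, hc⟩ := hcomm S hSc
  have htrS : Matrix.trace S = 64 * Matrix.trace (y : M4 F) := by
    rw [hS, Matrix.trace_sum]
    have h1 : ∀ s : ↥(R0 ι), Matrix.trace (((s : GL (Fin 4) F) : M4 F) * (y : M4 F) *
        (((s : GL (Fin 4) F)⁻¹ : GL (Fin 4) F) : M4 F)) = Matrix.trace (y : M4 F) := by
      intro s
      rw [Matrix.trace_mul_comm, ← mul_assoc, ← Units.val_mul, inv_mul_cancel]
      simp
    rw [Finset.sum_congr rfl (fun s _ => h1 s), Finset.sum_const, Finset.card_univ,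
      ← Nat.card_eq_fintype_card, hcard]
    simp
  have hc4 : c * 4 = 64 * Matrix.trace (y : M4 F) := by
    rw [← htrS, hc, Matrix.trace_smul, Matrix.trace_one]; simp
  have hsum1 : ∑ s : ↥(R0 ι), Matrix.trace (((y⁻¹ : GL (Fin 4) F) : M4 F) *
      (((s : GL (Fin 4) F) : M4 F) * (y : M4 F) *
        (((s : GL (Fin 4) F)⁻¹ : GL (Fin 4) F) : M4 F))) =
      c * Matrix.trace ((y⁻¹ : GL (Fin 4) F) : M4 F) := by
    rw [← Matrix.trace_sum, ← Finset.mul_sum, ← hS, hc]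
    simp [Matrix.trace_smul]
  have hterm : ∀ s : ↥(R0 ι), Matrix.trace (((y⁻¹ : GL (Fin 4) F) : M4 F) *
      (((s : GL (Fin 4) F) : M4 F) * (y : M4 F) *
        (((s : GL (Fin 4) F)⁻¹ : GL (Fin 4) F) : M4 F))) =
      if (s : GL (Fin 4) F) ∈ Subgroup.centralizer {y} then (4 : F) else 0 := by
    intro s
    have hw : y⁻¹ * (s : GL (Fin 4) F) * y * (s : GL (Fin 4) F)⁻¹ ∈ R0 ι :=
      (R0 ι).mul_mem (norm_conj hy s s.2) ((R0 ι).inv_mem s.2)
    have hwval : ((y⁻¹ * (s : GL (Fin 4) F) * y * (s : GL (Fin 4) F)⁻¹ : GL (Fin 4) F) : M4 F) =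
        ((y⁻¹ : GL (Fin 4) F) : M4 F) * (((s : GL (Fin 4) F) : M4 F) * (y : M4 F) *
          (((s : GL (Fin 4) F)⁻¹ : GL (Fin 4) F) : M4 F)) := by
      simp only [Units.val_mul, mul_assoc]
    rw [← hwval]
    by_cases hcen : (s : GL (Fin 4) F) ∈ Subgroup.centralizer {y}
    · rw [if_pos hcen]
      have h1 : (s : GL (Fin 4) F) * y = y * (s : GL (Fin 4) F) :=
        Subgroup.mem_centralizer_singleton_iff.mp hcen
      have h3 : y⁻¹ * (s : GL (Fin 4) F) * y * (s : GL (Fin 4) F)⁻¹ = 1 := by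
        calc y⁻¹ * (s : GL (Fin 4) F) * y * (s : GL (Fin 4) F)⁻¹
            = y⁻¹ * ((s : GL (Fin 4) F) * y) * (s : GL (Fin 4) F)⁻¹ := by group
          _ = y⁻¹ * (y * (s : GL (Fin 4) F)) * (s : GL (Fin 4) F)⁻¹ := by rw [h1]
          _ = 1 := by group
      rw [h3]
      simp [Matrix.trace_one]
    · rw [if_neg hcen]
      rcases htr _ hw with ⟨ε, hε⟩ | h0
      · exfalso
        have hε4 : ε ^ 4 = 1 := hsc4 _ hw ε hε
        -- `y⁻¹ s y = ε s`
        have hconj : ((y⁻¹ : GL (Fin 4) F) : M4 F) * ((s : GL (Fin 4) F) : M4 F) * (y : M4 F) =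
            ε • ((s : GL (Fin 4) F) : M4 F) := by
          have h5 : ((y⁻¹ * (s : GL (Fin 4) F) * y * (s : GL (Fin 4) F)⁻¹ : GL (Fin 4) F) : M4 F)
              * ((s : GL (Fin 4) F) : M4 F) = ε • ((s : GL (Fin 4) F) : M4 F) := by
            rw [hε]; simp
          rw [← h5, ← Units.val_mul]
          simp [Units.val_mul]
        have hpow : ∀ k : ℕ, ((y⁻¹ : GL (Fin 4) F) : M4 F) ^ k * ((s : GL (Fin 4) F) : M4 F) *
            (y : M4 F) ^ k = ε ^ k • ((s : GL (Fin 4) F) : M4 F) := by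
          intro k
          induction k with
          | zero => simp
          | succ k ih =>
            calc ((y⁻¹ : GL (Fin 4) F) : M4 F) ^ (k + 1) * ((s : GL (Fin 4) F) : M4 F) *
                (y : M4 F) ^ (k + 1)
                = ((y⁻¹ : GL (Fin 4) F) : M4 F) * (((y⁻¹ : GL (Fin 4) F) : M4 F) ^ k *
                    ((s : GL (Fin 4) F) : M4 F) * (y : M4 F) ^ k) * (y : M4 F) := by
                  rw [pow_succ', pow_succ]; simp only [mul_assoc]
              _ = ε ^ k • (((y⁻¹ : GL (Fin 4) F) : M4 F) * ((s : GL (Fin 4) F) : M4 F) *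
                    (y : M4 F)) := by
                  rw [ih]; simp [mul_assoc]
              _ = ε ^ (k + 1) • ((s : GL (Fin 4) F) : M4 F) := by
                  rw [hconj, smul_smul, pow_succ]
        have hym' : (y : M4 F) ^ m = 1 := by
          rw [← Units.val_pow_eq_pow_val, hym]; rfl
        have hyim' : ((y⁻¹ : GL (Fin 4) F) : M4 F) ^ m = 1 := by
          rw [← Units.val_pow_eq_pow_val, inv_pow, hym, inv_one]; rfl
        have h6 := hpow m
        rw [hym', hyim', one_mul, mul_one] at h6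
        -- `s = ε^m • s`, so `ε^m = 1`
        have h7 : (1 : M4 F) = ε ^ m • (1 : M4 F) := by
          have h8 : ((s : GL (Fin 4) F) : M4 F) * (((s : GL (Fin 4) F)⁻¹ : GL (Fin 4) F) : M4 F)
              = 1 := by rw [← Units.val_mul, mul_inv_cancel]; rfl
          calc (1 : M4 F) = ((s : GL (Fin 4) F) : M4 F) *
                (((s : GL (Fin 4) F)⁻¹ : GL (Fin 4) F) : M4 F) := h8.symm
            _ = (ε ^ m • ((s : GL (Fin 4) F) : M4 F)) *
                (((s : GL (Fin 4) F)⁻¹ : GL (Fin 4) F) : M4 F) := by rw [← h6]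
            _ = ε ^ m • (1 : M4 F) := by rw [Matrix.smul_mul, h8]
        have hεm : ε ^ m = 1 := by
          have h9 := congrFun (congrFun h7 0) 0
          simp at h9
          exact h9.symm
        have hε1 : ε = 1 := eq_one_of_pow_odd ε m hm hε4 hεm
        apply hcen
        rw [Subgroup.mem_centralizer_singleton_iff]
        have h10 : y⁻¹ * (s : GL (Fin 4) F) * y * (s : GL (Fin 4) F)⁻¹ = 1 := by
          apply Units.ext
          rw [hε, hε1, one_smul]; rfl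
        calc (s : GL (Fin 4) F) * y
            = y * (y⁻¹ * (s : GL (Fin 4) F) * y * (s : GL (Fin 4) F)⁻¹) * (s : GL (Fin 4) F) := by
              group
          _ = y * (s : GL (Fin 4) F) := by rw [h10, mul_one]
      · exact h0
  have hsum2 : ∑ s : ↥(R0 ι), (if (s : GL (Fin 4) F) ∈ Subgroup.centralizer {y} then (4 : F)
      else 0) = 4 * (Nat.card (C0 ι y) : F) := by
    rw [Finset.sum_ite, Finset.sum_const_zero, add_zero, Finset.sum_const, nsmul_eq_mul, mul_comm]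
    congr 1
    congr 1
    rw [← Fintype.card_subtype, ← Nat.card_eq_fintype_card]
    exact Nat.card_congr ⟨fun s => ⟨s.1.1, ⟨s.1.2, s.2⟩⟩, fun t => ⟨⟨t.1, t.2.1⟩, t.2.2⟩,
      fun s => rfl, fun t => rfl⟩
  have hE2 : c * Matrix.trace ((y⁻¹ : GL (Fin 4) F) : M4 F) = 4 * (Nat.card (C0 ι y) : F) := by
    rw [← hsum1, Finset.sum_congr rfl (fun s _ => hterm s), hsum2]
  have h4 : (4 : F) ≠ 0 := by
    have : (4 : F) = 2 * 2 := by norm_num
    rw [this]; exact mul_ne_zero h2 h2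
  have h16 : (16 : F) ≠ 0 := by
    have : (16 : F) = 4 * 4 := by norm_num
    rw [this]; exact mul_ne_zero h4 h4
  apply mul_left_cancel₀ h16
  linear_combination (-(Matrix.trace ((y⁻¹ : GL (Fin 4) F) : M4 F))) * hc4 + 4 * hE2

end Cfsg.Agent.Lib.Helper84.C64
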