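import Cfsg.Agent.Lib.Helper99.C64.Defs
import Cfsg.Agent.Lib.Helper84.C64.CentTr

/-!
# C64 (S6000) package [CENT8] (assuming the package [R0])
-/

set_option autoImplicit false

namespace Cfsg.Agent.Lib.Helper84.C64

open Cfsg.Agent.Lib.Helper99.C64 Matrix

universe u

/-- the matrix of an invertible matrix is not zero -/
theorem unit_ne_zero {F : Type u} [Field F] (g : GL (Fin 4) F) : (g : M4 F) ≠ 0 := by
  intro h
  have h1 : (g : M4 F) * ((g⁻¹ : GL (Fin 4) F) : M4 F) = 1 := by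
    rw [← Units.val_mul, mul_inv_cancel]; rfl
  rw [h, zero_mul] at h1
  have h3 := congrFun (congrFun h1 0) 0
  rw [Matrix.zero_apply, Matrix.one_apply_eq] at h3
  exact zero_ne_one h3

theorem cent_iff {F : Type u} [Field F] (v k : GL (Fin 4) F) :
    k ∈ Subgroup.centralizer {v} ↔ (k : M4 F) * (v : M4 F) = (v : M4 F) * (k : M4 F) := by
  rw [Subgroup.mem_centralizer_singleton_iff]
  constructor
  · intro h
    have := congrArg Units.val h
    simpa [Units.val_mul] using this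
  · intro h
    exact Units.ext (by simpa [Units.val_mul] using h)

theorem pkgCent8_of (hR0 : PkgR0.{u}) : PkgCent8.{u} := by
  intro F _ _ h2 ι hι y hy hy7 hC8
  classical
  obtain ⟨hcard, htr, hsc4, hsc4ex, hsq, hcpm, hcomm, -, -⟩ := hR0 F h2 ι hι
  haveI : Finite (GL (Fin 4) F) := Finite.of_fintype _
  haveI : Fact (Nat.Prime 2) := ⟨Nat.prime_two⟩
  haveI : Fact (Nat.Prime 7) := ⟨by norm_num⟩
  have hι4 : ι ^ 4 = 1 := by
    have : ι ^ 4 = (ι ^ 2) ^ 2 := by ring
    rw [this, hι]; norm_num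
  obtain ⟨z, hzR, hz⟩ := hsc4ex ι hι4
  have hzpow : ∀ k : ℕ, ((z ^ k : GL (Fin 4) F) : M4 F) = ι ^ k • (1 : M4 F) := by
    intro k; rw [Units.val_pow_eq_pow_val, hz, smul_pow, one_pow]
  -- `z` is central
  have hzc : ∀ x : GL (Fin 4) F, z * x = x * z := by
    intro x
    apply Units.ext
    rw [Units.val_mul, Units.val_mul, hz, Matrix.smul_mul, Matrix.mul_smul, one_mul, mul_one]
  -- the order of `z`
  have hz2 : ¬ z ^ 2 ^ 1 = 1 := by
    intro h
    have h1 : ((z ^ 2 : GL (Fin 4) F) : M4 F) = 1 := by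
      rw [pow_one] at h; rw [h]; rfl
    rw [hzpow, hι] at h1
    have h3 := congrFun (congrFun h1 0) 0
    rw [Matrix.smul_apply, Matrix.one_apply_eq, smul_eq_mul, mul_one] at h3
    apply h2
    linear_combination (-1 : F) * h3
  have hz4 : z ^ 2 ^ (1 + 1) = 1 := by
    have h4 : (2 : ℕ) ^ (1 + 1) = 4 := by norm_num
    rw [h4]
    apply Units.ext
    rw [hzpow, hι4, one_smul]; rfl
  have hzord : orderOf z = 4 := by
    have := orderOf_eq_prime_pow hz2 hz4
    rw [this]; norm_num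
  have hZcard : Nat.card (Subgroup.zpowers z) = 4 := by
    rw [Nat.card_zpowers, hzord]
  -- scalars of `R0` are powers of `z`
  have hscalZ : ∀ g ∈ R0 ι, IsScal g → g ∈ Subgroup.zpowers z := by
    rintro g hg ⟨c, hc⟩
    have hc4 := hsc4 g hg c hc
    have hfac : (c - 1) * (c + 1) * (c - ι) * (c + ι) = 0 := by
      have : (c - 1) * (c + 1) * (c - ι) * (c + ι)
          = c ^ 4 - 1 + (c ^ 2 - 1) * (-(ι ^ 2) - 1) := by ring
      rw [this, hc4, hι]; ring
    have hmem : ∀ k : ℕ, c = ι ^ k → g ∈ Subgroup.zpowers z := by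
      intro k hk
      have : g = z ^ k := Units.ext (by rw [hc, hzpow, hk])
      rw [this]; exact Subgroup.pow_mem _ (Subgroup.mem_zpowers z) k
    rcases mul_eq_zero.mp hfac with h | h
    · rcases mul_eq_zero.mp h with h | h
      · rcases mul_eq_zero.mp h with h | h
        · exact hmem 0 (by rw [pow_zero]; linear_combination h)
        · exact hmem 2 (by rw [hι]; linear_combination h)
      · exact hmem 1 (by rw [pow_one]; linear_combination h)
    · exact hmem 3 (by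
        have : ι ^ 3 = ι ^ 2 * ι := by ring
        rw [this, hι]; linear_combination h)
  -- `zpowers z` lies in every centraliser
  have hZcen : ∀ x : GL (Fin 4) F, Subgroup.zpowers z ≤ Subgroup.centralizer {x} := by
    intro x
    rw [Subgroup.zpowers_le, Subgroup.mem_centralizer_singleton_iff]
    exact hzc x
  have hZR : Subgroup.zpowers z ≤ R0 ι := by
    rw [Subgroup.zpowers_le]; exact hzR
  have hZC : Subgroup.zpowers z ≤ C0 ι y := le_inf hZR (hZcen y)
  -- a non-scalar element of the centraliser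
  obtain ⟨v, hvC, hvZ⟩ : ∃ v ∈ C0 ι y, v ∉ Subgroup.zpowers z := by
    by_contra hcon
    push_neg at hcon
    have hle : C0 ι y ≤ Subgroup.zpowers z := fun g hg => hcon g hg
    have := Subgroup.card_le_of_le hle
    omega
  have hvR : v ∈ R0 ι := hvC.1
  have hvns : ¬ IsScal v := fun h => hvZ (hscalZ v hvR h)
  -- an element anticommuting with `v`
  obtain ⟨t, htR, htv⟩ : ∃ t ∈ R0 ι, (t : M4 F) * (v : M4 F) = -((v : M4 F) * (t : M4 F)) := by
    by_contra hcon
    push_neg at hcon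
    apply hvns
    obtain ⟨c, hc⟩ := hcomm (v : M4 F) (by
      intro g hg
      rcases hcpm g hg v hvR with h | h
      · exact h
      · exact absurd h (hcon g hg))
    exact ⟨c, hc⟩
  have hanti : ∀ k : GL (Fin 4) F, (k : M4 F) * (v : M4 F) = -((v : M4 F) * (k : M4 F)) →
      (k : M4 F) * (v : M4 F) ≠ (v : M4 F) * (k : M4 F) := by
    intro k h h'
    rw [h'] at h
    have h5 : (2 : F) • ((v : M4 F) * (k : M4 F)) = 0 := by
      rw [two_smul]
      nth_rewrite 1 [h]
      exact neg_add_cancel _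
    have h6 : (v : M4 F) * (k : M4 F) = 0 := by
      rcases smul_eq_zero.mp h5 with h7 | h7
      · exact absurd h7 h2
      · exact h7
    have := unit_ne_zero (v * k)
    rw [Units.val_mul] at this
    exact this h6
  -- the centraliser of `v` in `R0` has order 32
  have hD32 : Nat.card (C0 ι v) = 32 := by
    have hidx : ((C0 ι v).subgroupOf (R0 ι)).index = 2 := by
      rw [Subgroup.index_eq_two_iff]
      refine ⟨⟨t, htR⟩, fun b => ?_⟩
      have hmem : ∀ k : ↥(R0 ι), k ∈ (C0 ι v).subgroupOf (R0 ι) ↔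
          ((k : GL (Fin 4) F) : M4 F) * (v : M4 F) = (v : M4 F) * ((k : GL (Fin 4) F) : M4 F) := by
        intro k
        rw [Subgroup.mem_subgroupOf]
        constructor
        · intro h; exact (cent_iff v _).mp h.2
        · intro h; exact ⟨k.2, (cent_iff v _).mpr h⟩
      rw [hmem, hmem]
      have hbt : (((b * ⟨t, htR⟩ : ↥(R0 ι)) : GL (Fin 4) F) : M4 F) =
          ((b : GL (Fin 4) F) : M4 F) * (t : M4 F) := by
        simp [Units.val_mul]
      rw [hbt]
      rcases hcpm b b.2 v hvR with h | h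
      · right
        refine ⟨h, ?_⟩
        have h8 : ((b : GL (Fin 4) F) : M4 F) * (t : M4 F) * (v : M4 F) =
            -((v : M4 F) * (((b : GL (Fin 4) F) : M4 F) * (t : M4 F))) := by
          rw [mul_assoc, htv, Matrix.mul_neg, ← mul_assoc, h, mul_assoc]
        have h9 := hanti ((b : GL (Fin 4) F) * t) (by rw [Units.val_mul]; exact h8)
        rw [Units.val_mul] at h9
        exact h9
      · left
        refine ⟨?_, hanti _ h⟩
        rw [mul_assoc, htv, Matrix.mul_neg, ← mul_assoc, h, Matrix.neg_mul, neg_neg, mul_assoc]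
    have hmul := Subgroup.card_mul_index ((C0 ι v).subgroupOf (R0 ι))
    rw [hidx, hcard] at hmul
    have heq : Nat.card ((C0 ι v).subgroupOf (R0 ι)) = Nat.card (C0 ι v) :=
      Nat.card_congr (Subgroup.subgroupOfEquivOfLe (inf_le_left : C0 ι v ≤ R0 ι)).toEquiv
    omega
  -- `y` commutes with `v`
  have hyv : y * v = v * y := (Subgroup.mem_centralizer_singleton_iff.mp hvC.2).symm
  have hyiv : y⁻¹ * v = v * y⁻¹ := by
    calc y⁻¹ * v = y⁻¹ * (v * y) * y⁻¹ := by group
      _ = y⁻¹ * (y * v) * y⁻¹ := by rw [hyv]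
      _ = v * y⁻¹ := by group
  -- conjugation by `y` on the centraliser of `v`
  have hfmem : ∀ s : ↥(C0 ι v), y * (s : GL (Fin 4) F) * y⁻¹ ∈ C0 ι v := by
    intro s
    refine ⟨norm_conj' hy s.1 s.2.1, ?_⟩
    apply Subgroup.mem_centralizer_singleton_iff.mpr
    have hsv : (s : GL (Fin 4) F) * v = v * (s : GL (Fin 4) F) :=
      Subgroup.mem_centralizer_singleton_iff.mp s.2.2
    calc y * (s : GL (Fin 4) F) * y⁻¹ * v = y * (s : GL (Fin 4) F) * (y⁻¹ * v) := by group
      _ = y * ((s : GL (Fin 4) F) * v) * y⁻¹ := by rw [hyiv]; group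
      _ = (y * v) * (s : GL (Fin 4) F) * y⁻¹ := by rw [hsv]; group
      _ = v * (y * (s : GL (Fin 4) F) * y⁻¹) := by rw [hyv]; group
  let f : Function.End ↥(C0 ι v) := fun s => ⟨y * (s : GL (Fin 4) F) * y⁻¹, hfmem s⟩
  haveI : Fintype ↥(C0 ι v) := Fintype.ofFinite _
  have hf : f ^ 7 ^ 1 = 1 := by
    funext s
    apply Subtype.ext
    show y * (y * (y * (y * (y * (y * (y * (s : GL (Fin 4) F) * y⁻¹) * y⁻¹) * y⁻¹) * y⁻¹) * y⁻¹)
      * y⁻¹) * y⁻¹ = (s : GL (Fin 4) F)
    have hy7' : y * (y * (y * (y * (y * (y * y))))) = 1 := by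
      rw [← hy7]; simp only [pow_succ, pow_zero, one_mul, mul_assoc]
    have hy7i : y⁻¹ * (y⁻¹ * (y⁻¹ * (y⁻¹ * (y⁻¹ * (y⁻¹ * y⁻¹))))) = 1 := by
      have h7i : (y⁻¹) ^ 7 = 1 := by rw [inv_pow, hy7, inv_one]
      rw [← h7i]; simp only [pow_succ, pow_zero, one_mul, mul_assoc]
    calc y * (y * (y * (y * (y * (y * (y * (s : GL (Fin 4) F) * y⁻¹) * y⁻¹) * y⁻¹) * y⁻¹) * y⁻¹)
        * y⁻¹) * y⁻¹ = (y * (y * (y * (y * (y * (y * y)))))) * (s : GL (Fin 4) F) *
          (y⁻¹ * (y⁻¹ * (y⁻¹ * (y⁻¹ * (y⁻¹ * (y⁻¹ * y⁻¹)))))) := by simp only [mul_assoc]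
      _ = (s : GL (Fin 4) F) := by rw [hy7', hy7i, one_mul, mul_one]
  have hmod := Equiv.Perm.card_fixedPoints_modEq (p := 7) (n := 1) hf
  rw [Fintype.card_eq_nat_card, Fintype.card_eq_nat_card, hD32] at hmod
  -- the fixed points
  have hfix : Nat.card (Function.fixedPoints f) =
      Nat.card ↥(C0 ι y ⊓ Subgroup.centralizer {v}) := by
    refine Nat.card_congr
      ⟨fun s => ⟨((s : ↥(C0 ι v)) : GL (Fin 4) F), ⟨⟨s.1.2.1, ?_⟩, s.1.2.2⟩⟩,
       fun k => ⟨⟨(k : GL (Fin 4) F), ⟨k.2.1.1, k.2.2⟩⟩, ?_⟩, fun s => rfl, fun k => rfl⟩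
    · apply Subgroup.mem_centralizer_singleton_iff.mpr
      have h1 : y * ((s : ↥(C0 ι v)) : GL (Fin 4) F) * y⁻¹ = ((s : ↥(C0 ι v)) : GL (Fin 4) F) :=
        congrArg Subtype.val s.2
      calc ((s : ↥(C0 ι v)) : GL (Fin 4) F) * y
          = (y * ((s : ↥(C0 ι v)) : GL (Fin 4) F) * y⁻¹) * y := by rw [h1]
        _ = y * ((s : ↥(C0 ι v)) : GL (Fin 4) F) := by group
    · show f _ = _
      apply Subtype.ext
      show y * (k : GL (Fin 4) F) * y⁻¹ = (k : GL (Fin 4) F)
      have h1 : (k : GL (Fin 4) F) * y = y * (k : GL (Fin 4) F) :=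
        Subgroup.mem_centralizer_singleton_iff.mp k.2.1.2
      calc y * (k : GL (Fin 4) F) * y⁻¹ = ((k : GL (Fin 4) F) * y) * y⁻¹ := by rw [h1]
        _ = (k : GL (Fin 4) F) := by group
  rw [hfix] at hmod
  -- the order of `K`
  have hk8 : Nat.card ↥(C0 ι y ⊓ Subgroup.centralizer {v}) ∣ Nat.card (C0 ι y) :=
    Subgroup.card_dvd_of_le inf_le_left
  have hZK : Subgroup.zpowers z ≤ C0 ι y ⊓ Subgroup.centralizer {v} := le_inf hZC (hZcen v)
  have hk4 : Nat.card (Subgroup.zpowers z) ∣ Nat.card ↥(C0 ι y ⊓ Subgroup.centralizer {v}) :=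
    Subgroup.card_dvd_of_le hZK
  rw [hC8] at hk8
  rw [hZcard] at hk4
  have hle : Nat.card ↥(C0 ι y ⊓ Subgroup.centralizer {v}) ≤ 8 := Nat.le_of_dvd (by norm_num) hk8
  have hK4 : Nat.card ↥(C0 ι y ⊓ Subgroup.centralizer {v}) = 4 := by
    obtain ⟨a, ha⟩ := hk4
    unfold Nat.ModEq at hmod
    omega
  have hZeq : Subgroup.zpowers z = C0 ι y ⊓ Subgroup.centralizer {v} :=
    Subgroup.eq_of_le_of_card_ge hZK (by rw [hK4, hZcard])
  apply hvZ
  rw [hZeq]
  exact ⟨hvC, Subgroup.mem_centralizer_singleton_iff.mpr rfl⟩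

end Cfsg.Agent.Lib.Helper84.C64
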